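import Cfsg.Agent.Lib.Classical.QuadOmega.Main
import Cfsg.Agent.Lib.Classical.QuadOmega.TwoGenTau

/-!
Two generators of the group generated by the Siegel transformations, for at least three
hyperbolic pairs: `g · U` and `S(e₁, v) · r · w`, with `g` a companion matrix on the first two
pairs, `U` a root element it centralises and `w` a signed cycle.
-/

set_option autoImplicit false

namespace Cfsg.Agent.Lib.Classical.QuadOmega.TwoGen

open QuadraticMap Cfsg.Agent.Lib.Classical.Quad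

variable {F : Type*} [Field F] {W : Type*} [AddCommGroup W] [Module F W] {Q : QuadraticForm F W}

/-- Commuting elements of coprime orders are powers of their product. -/
theorem mem_of_coprime {G : Type*} [Group G] {H : Subgroup G} {t z : G} (hc : Commute t z) {A q : ℕ}
    (hA : A.Coprime q) (hAq : 1 < q) (ht : t ^ A = 1) (hz : z ^ q = 1) (h : t * z ∈ H) : t ∈ H ∧ z ∈ H := by
  have hz' : z ∈ H := by
    obtain ⟨j, hj⟩ := Nat.exists_mul_mod_eq_one_of_coprime hA hAq
    have hp := pow_mem h (A * j)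
    rw [hc.mul_pow, pow_mul, ht, one_pow, one_mul, ← Nat.div_add_mod (A * j) q, pow_add, pow_mul, hz, one_pow,
      one_mul, hj.2, pow_one] at hp
    exact hp
  exact ⟨by simpa [mul_assoc] using mul_mem h (inv_mem hz'), hz'⟩

theorem sie_flip {x y : W} (hx : Q x = 0) (hy : Q y = 0) (hxy : polar Q x y = 0) :
    sie Q x y = sie Q y (-x) := by
  refine iso_ext fun v => ?_
  rw [sie_apply hx hxy, sie_apply hy (by rw [polar_neg_right, polar_comm, hxy, neg_zero])]
  simp only [QuadraticMap.map_neg, hx, hy, polar_neg_right, zero_mul, zero_smul, sub_zero, smul_neg, neg_smul]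
  abel

theorem sie_conj' {x u : W} (hx : Q x = 0) (hu : polar Q x u = 0) (g : isoG Q) {x' u' : W} (h1 : g.1 x = x')
    (h2 : g.1 u = u') : g * sie Q x u * g⁻¹ = sie Q x' u' := by
  rw [sie_conj hx hu, h1, h2]

theorem mul_apply' (g h : isoG Q) (v : W) : (g * h).1 v = g.1 (h.1 v) := rfl

/-- The whole root subgroup of a singular orthogonal pair lies in `H`. -/
def P (H : Subgroup (isoG Q)) (x y : W) : Prop :=
  Q x = 0 ∧ Q y = 0 ∧ polar Q x y = 0 ∧ ∀ t : F, sie Q x (t • y) ∈ H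

variable {H : Subgroup (isoG Q)}

theorem P.mem {x y : W} (h : P H x y) : sie Q x y ∈ H := by simpa using h.2.2.2 1

theorem P.symm {x y : W} (h : P H x y) : P H y x := by
  obtain ⟨hx, hy, hxy, hm⟩ := h
  refine ⟨hy, hx, by rw [polar_comm, hxy], fun t => ?_⟩
  have := hm (-t)
  rwa [← sie_smul hx hxy, sie_flip (by rw [QuadraticMap.map_smul, hx, smul_zero]) hy
    (by rw [polar_smul_left, hxy, smul_zero]), neg_smul, neg_neg] at this

theorem P.smul {x y : W} (h : P H x y) (c : F) : P H x (c • y) := by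
  obtain ⟨hx, hy, hxy, hm⟩ := h
  exact ⟨hx, by rw [QuadraticMap.map_smul, hy, smul_zero], by rw [polar_smul_right, hxy, smul_zero],
    fun t => by rw [smul_smul]; exact hm _⟩

theorem P.neg {x y : W} (h : P H x y) : P H x (-y) := by simpa using h.smul (-1)

theorem P.conj {x y : W} (h : P H x y) {g : isoG Q} (hg : g ∈ H) {x' y' : W} (h1 : g.1 x = x') (h2 : g.1 y = y') :
    P H x' y' := by
  obtain ⟨hx, hy, hxy, hm⟩ := h
  subst h1 h2
  refine ⟨by rw [iso_Q, hx], by rw [iso_Q, hy], by rw [iso_B, hxy], fun t => ?_⟩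
  have := mul_mem (mul_mem hg (hm t)) (inv_mem hg)
  rwa [sie_conj hx (by rw [polar_smul_right, hxy, smul_zero]), map_smul] at this

theorem P.add {x y z : W} (h : P H x y) (h' : P H x z) (hyz : polar Q y z = 0) : P H x (y + z) := by
  obtain ⟨hx, hy, hxy, hm⟩ := h
  obtain ⟨-, hz, hxz, hm'⟩ := h'
  refine ⟨hx, by rw [QuadraticMap.map_add ⇑Q, hy, hz, hyz]; simp, by rw [polar_add_right, hxy, hxz, add_zero],
    fun t => ?_⟩
  rw [smul_add, sie_add hx (by rw [polar_smul_right, hxy, smul_zero]) (by rw [polar_smul_right, hxz, smul_zero])]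
  exact mul_mem (hm t) (hm' t)

/-- The commutator of two root subgroups. -/
theorem P.comm {x y z u : W} (h : P H x y) (h' : P H z u) (hyz : polar Q y z = 1) (hxz : polar Q x z = 0)
    (hxu : polar Q x u = 0) (hyu : polar Q y u = 0) : P H u x := by
  have hx := h.1
  have hy := h.2.1
  have hxy := h.2.2.1
  have hg : (sie Q x y).1 z = z - x := by
    rw [sie_apply hx hxy, polar_comm Q z x, hxz, polar_comm Q z y, hyz]
    simp
  have hu : (sie Q x y).1 u = u := sie_fix hx hxy (by rw [polar_comm, hxu]) (by rw [polar_comm, hyu])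
  have h1 := (h'.conj h.mem hg hu).symm
  have h2 := h'.symm
  have h3 := h2.add h1.neg (by
    rw [neg_sub, polar_sub_right, polar_comm Q z x, hxz, polar_self_sing h'.1, sub_zero])
  simpa using h3

/-- A fixing element with trace `τ` spreads one root element over two root subgroups. -/
theorem full {τ : F} (hτ : ∀ M : AddSubgroup F, (1 : F) ∈ M → (∀ a ∈ M, τ * a ∈ M) → M = ⊤) {h : isoG Q}
    (hh : h ∈ H) {x u u' : W} (hx : h.1 x = x) (hxs : Q x = 0) (hus : Q u = 0) (hxu : polar Q x u = 0)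
    (hu : h.1 u = u') (hu' : h.1 u' = τ • u' - u) (hm : sie Q x u ∈ H) : P H x u ∧ P H x u' := by
  have hus' : Q u' = 0 := by rw [← hu, iso_Q, hus]
  have hxu' : polar Q x u' = 0 := by rw [← hu, ← hx, iso_B, hxu]
  have s : ∀ (c : F), polar Q x (c • u) = 0 := fun c => by rw [polar_smul_right, hxu, smul_zero]
  have s' : ∀ (c : F), polar Q x (c • u') = 0 := fun c => by rw [polar_smul_right, hxu', smul_zero]
  have hx' : (h⁻¹ : isoG Q).1 x = x := by
    conv_lhs => rw [← hx]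
    rw [← mul_apply', inv_mul_cancel]; rfl
  have hfw : ∀ a : F, sie Q x (a • u) ∈ H → sie Q x (a • u') ∈ H := fun a ha => by
    have := mul_mem (mul_mem hh ha) (inv_mem hh)
    rwa [sie_conj hxs (s a), hx, map_smul, hu] at this
  let M : AddSubgroup F :=
    { carrier := {a | sie Q x (a • u) ∈ H}
      add_mem' := fun {a b} ha hb => by
        show sie Q x ((a + b) • u) ∈ H
        rw [add_smul, sie_add hxs (s a) (s b)]
        exact mul_mem ha hb
      zero_mem' := by show sie Q x ((0 : F) • u) ∈ H; rw [zero_smul, sie_zero hxs]; exact one_mem H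
      neg_mem' := fun {a} ha => by
        show sie Q x ((-a) • u) ∈ H
        rw [neg_smul, sie_neg hxs (s a)]
        exact inv_mem ha }
  have hM : M = ⊤ := hτ M (by show sie Q x ((1 : F) • u) ∈ H; rwa [one_smul]) fun a ha => by
    show sie Q x ((τ * a) • u) ∈ H
    have e : (h⁻¹ : isoG Q).1 (a • u) = (τ * a) • u + -(a • u') := by
      have h2 : h.1 ((τ * a) • u + -(a • u')) = a • u := by
        rw [map_add, map_neg, map_smul, map_smul, hu, hu']
        module
      conv_lhs => rw [← h2]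
      rw [← mul_apply', inv_mul_cancel]; rfl
    have h1 := mul_mem (mul_mem (inv_mem hh) ha) (inv_mem (inv_mem hh))
    rw [sie_conj hxs (s a), hx', e, sie_add hxs (s _) (by rw [← neg_smul]; exact s' _), sie_neg hxs (s' a)] at h1
    simpa [mul_assoc] using mul_mem h1 (hfw a ha)
  have all : ∀ a : F, sie Q x (a • u) ∈ H := fun a => by
    have : a ∈ M := by rw [hM]; trivial
    exact this
  exact ⟨⟨hxs, hus, hxu, all⟩, ⟨hxs, hus', hxu', fun a => hfw a (all a)⟩⟩

/-! ### Frames -/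

/-- Hyperbolic pairs `e i`, `f i` for `i < m`. -/
structure Frame (Q : QuadraticForm F W) (m : ℕ) (e f : ℕ → W) : Prop where
  Qe : ∀ i, i < m → Q (e i) = 0
  Qf : ∀ i, i < m → Q (f i) = 0
  ee : ∀ i j, i < m → j < m → polar Q (e i) (e j) = 0
  ff : ∀ i j, i < m → j < m → polar Q (f i) (f j) = 0
  ef : ∀ i j, i < m → j < m → polar Q (e i) (f j) = if i = j then 1 else 0

/-- Orthogonal to every pair. -/
def Perp (Q : QuadraticForm F W) (m : ℕ) (e f : ℕ → W) (p : W) : Prop :=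
  ∀ i, i < m → polar Q p (e i) = 0 ∧ polar Q p (f i) = 0

/-- Orthogonal to the two pairs `i`, `j`. -/
def Perp2 (Q : QuadraticForm F W) (e f : ℕ → W) (i j : ℕ) (y : W) : Prop :=
  polar Q y (e i) = 0 ∧ polar Q y (f i) = 0 ∧ polar Q y (e j) = 0 ∧ polar Q y (f j) = 0

section frame

variable {m : ℕ} {e f : ℕ → W} (hF : Frame Q m e f)
include hF

theorem Frame.fe {i j : ℕ} (hi : i < m) (hj : j < m) :
    polar Q (f i) (e j) = if i = j then 1 else 0 := by
  rw [polar_comm, hF.ef j i hj hi]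
  simp [eq_comm]

theorem Frame.ef0 {i j : ℕ} (hi : i < m) (hj : j < m) (h : i ≠ j) : polar Q (e i) (f j) = 0 := by
  rw [hF.ef i j hi hj, if_neg h]

theorem Frame.fe0 {i j : ℕ} (hi : i < m) (hj : j < m) (h : i ≠ j) : polar Q (f i) (e j) = 0 := by
  rw [hF.fe hi hj, if_neg h]

theorem Frame.ef1 {i : ℕ} (hi : i < m) : polar Q (e i) (f i) = 1 := by rw [hF.ef i i hi hi, if_pos rfl]

theorem Frame.fe1 {i : ℕ} (hi : i < m) : polar Q (f i) (e i) = 1 := by rw [hF.fe hi hi, if_pos rfl]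

theorem Frame.perp2_e {i j k : ℕ} (hi : i < m) (hj : j < m) (hk : k < m) (h1 : k ≠ i) (h2 : k ≠ j) :
    Perp2 Q e f i j (e k) :=
  ⟨hF.ee k i hk hi, hF.ef0 hk hi h1, hF.ee k j hk hj, hF.ef0 hk hj h2⟩

theorem Frame.perp2_f {i j k : ℕ} (hi : i < m) (hj : j < m) (hk : k < m) (h1 : k ≠ i) (h2 : k ≠ j) :
    Perp2 Q e f i j (f k) :=
  ⟨hF.fe0 hk hi h1, hF.ff k i hk hi, hF.fe0 hk hj h2, hF.ff k j hk hj⟩

omit hF in
theorem Perp.two {p : W} (hp : Perp Q m e f p) {i j : ℕ} (hi : i < m) (hj : j < m) : Perp2 Q e f i j p :=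
  ⟨(hp i hi).1, (hp i hi).2, (hp j hj).1, (hp j hj).2⟩

theorem Frame.exists_perp (u : W) : ∃ p, Perp Q m e f p ∧
    u = (∑ i ∈ Finset.range m, (polar Q u (f i) • e i + polar Q u (e i) • f i)) + p := by
  refine ⟨u - ∑ i ∈ Finset.range m, (polar Q u (f i) • e i + polar Q u (e i) • f i), fun j hj => ?_, by abel⟩
  have key : ∀ (z : W),
      polar Q (∑ i ∈ Finset.range m, (polar Q u (f i) • e i + polar Q u (e i) • f i)) z =
        ∑ i ∈ Finset.range m, (polar Q u (f i) * polar Q (e i) z + polar Q u (e i) * polar Q (f i) z) := by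
    intro z
    change (polarBilin Q) _ z = _
    rw [map_sum, LinearMap.sum_apply]
    simp
  constructor
  · rw [polar_sub_left, key, Finset.sum_eq_single_of_mem j (Finset.mem_range.2 hj)]
    · rw [hF.ee j j hj hj, hF.fe1 hj]; ring
    · intro i hi hij
      rw [hF.ee i j (Finset.mem_range.1 hi) hj, hF.fe0 (Finset.mem_range.1 hi) hj hij]; ring
  · rw [polar_sub_left, key, Finset.sum_eq_single_of_mem j (Finset.mem_range.2 hj)]
    · rw [hF.ff j j hj hj, hF.ef1 hj]; ring
    · intro i hi hij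
      rw [hF.ff i j (Finset.mem_range.1 hi) hj, hF.ef0 (Finset.mem_range.1 hi) hj hij]; ring

theorem sieR_apply {i j : ℕ} (hi : i < m) (hj : j < m) (hij : i ≠ j) (t : F) (v : W) :
    (sie Q (e i) (t • f j)).1 v = v + (t * polar Q v (e i)) • f j - (t * polar Q v (f j)) • e i := by
  rw [sie_apply (hF.Qe i hi) (by rw [polar_smul_right, hF.ef0 hi hj hij, smul_zero]), QuadraticMap.map_smul,
    hF.Qf j hj, polar_smul_right]
  simp only [smul_eq_mul, mul_zero, zero_mul, zero_smul, sub_zero, smul_smul]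
  rw [mul_comm (polar Q v (e i)) t]

end frame

variable {e f : ℕ → W}

/-- The quarter turn taking pair `i` to pair `j`. -/
noncomputable def R (Q : QuadraticForm F W) (e f : ℕ → W) (i j : ℕ) : isoG Q :=
  sie Q (e i) (f j) * sie Q (e j) (-f i) * sie Q (e i) (f j)

/-- The element exchanging pair `0` and pair `1` crosswise. -/
noncomputable def N (Q : QuadraticForm F W) (e f : ℕ → W) : isoG Q :=
  sie Q (e 0) (e 1) * sie Q (f 1) (-f 0) * sie Q (e 0) (e 1)

/-- The cycle of the first `k + 1` pairs. -/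
noncomputable def cyc (Q : QuadraticForm F W) (e f : ℕ → W) : ℕ → isoG Q
  | 0 => 1
  | k + 1 => cyc Q e f k * R Q e f k (k + 1)

section frame2

variable {m : ℕ} (hF : Frame Q m e f)
include hF

theorem R_mem {i j : ℕ} (hi : i < m) (hj : j < m) (hij : i ≠ j) {H : Subgroup (isoG Q)}
    (h1 : P H (e i) (f j)) (h2 : P H (e j) (f i)) : R Q e f i j ∈ H :=
  mul_mem (mul_mem h1.mem h2.neg.mem) h1.mem

theorem R_spec {i j : ℕ} (hi : i < m) (hj : j < m) (hij : i ≠ j) :
    (R Q e f i j).1 (e i) = e j ∧ (R Q e f i j).1 (e j) = -e i ∧ (R Q e f i j).1 (f i) = f j ∧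
      (R Q e f i j).1 (f j) = -f i ∧ ∀ y, Perp2 Q e f i j y → (R Q e f i j).1 y = y := by
  have a := sieR_apply hF hi hj hij (1 : F)
  have b := sieR_apply hF hj hi hij.symm (-1 : F)
  rw [one_smul] at a
  rw [neg_one_smul] at b
  have hee := hF.ee i i hi hi
  have hee' := hF.ee j j hj hj
  have heij := hF.ee i j hi hj
  have heji := hF.ee j i hj hi
  have hff := hF.ff i i hi hi
  have hff' := hF.ff j j hj hj
  have hfij := hF.ff i j hi hj
  have hfji := hF.ff j i hj hi
  have h1 := hF.ef0 hi hj hij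
  have h2 := hF.ef0 hj hi hij.symm
  have h3 := hF.fe0 hi hj hij
  have h4 := hF.fe0 hj hi hij.symm
  have h5 := hF.ef1 hi
  have h6 := hF.ef1 hj
  have h7 := hF.fe1 hi
  have h8 := hF.fe1 hj
  refine ⟨?_, ?_, ?_, ?_, fun y hy => ?_⟩ <;>
    simp only [R, mul_apply', a, b, polar_add_left, polar_sub_left, polar_neg_left, polar_smul_left,
      hee, hee', heij, heji, hff, hff', hfij, hfji, h1, h2, h3, h4, h5, h6, h7, h8, smul_eq_mul]
  iterate 4 module
  simp only [hy.1, hy.2.1, hy.2.2.1, hy.2.2.2]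
  module

theorem N_spec (hm : 2 ≤ m) :
    (N Q e f).1 (e 1) = -f 0 ∧ (N Q e f).1 (f 1) = -e 0 ∧
      ∀ y, Perp2 Q e f 0 1 y → (N Q e f).1 y = y := by
  have hi : 0 < m := by omega
  have hj : 1 < m := by omega
  have a : ∀ v, (sie Q (e 0) (e 1)).1 v = v + polar Q v (e 0) • e 1 - polar Q v (e 1) • e 0 := fun v => by
    rw [sie_apply (hF.Qe 0 hi) (hF.ee 0 1 hi hj), hF.Qe 1 hj]; simp
  have b : ∀ v, (sie Q (f 1) (-f 0)).1 v = v - polar Q v (f 1) • f 0 + polar Q v (f 0) • f 1 := fun v => by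
    rw [sie_apply (hF.Qf 1 hj) (by rw [polar_neg_right, hF.ff 1 0 hj hi, neg_zero]), QuadraticMap.map_neg,
      hF.Qf 0 hi, polar_neg_right]
    simp only [zero_mul, zero_smul, sub_zero, smul_neg, neg_smul, sub_neg_eq_add]
    abel
  refine ⟨?_, ?_, fun y hy => ?_⟩ <;>
    simp only [N, mul_apply', a, b, polar_add_left, polar_sub_left, polar_neg_left, polar_smul_left,
      hF.ee 0 0 hi hi, hF.ee 1 1 hj hj, hF.ee 0 1 hi hj, hF.ee 1 0 hj hi, hF.ff 0 0 hi hi, hF.ff 1 1 hj hj,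
      hF.ff 0 1 hi hj, hF.ff 1 0 hj hi, hF.ef0 hi hj zero_ne_one, hF.ef0 hj hi one_ne_zero,
      hF.fe0 hi hj zero_ne_one, hF.fe0 hj hi one_ne_zero, hF.ef1 hi, hF.ef1 hj, hF.fe1 hi, hF.fe1 hj, smul_eq_mul]
  iterate 2 module
  simp only [hy.1, hy.2.1, hy.2.2.1, hy.2.2.2]
  module

theorem cyc_spec : ∀ k, k < m → (∀ i, i < k → (cyc Q e f k).1 (e i) = e (i + 1) ∧ (cyc Q e f k).1 (f i) = f (i + 1)) ∧
    ∀ y, (∀ i, i ≤ k → polar Q y (e i) = 0 ∧ polar Q y (f i) = 0) → (cyc Q e f k).1 y = y := by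
  intro k
  induction k with
  | zero => exact fun _ => ⟨fun i hi => absurd hi (Nat.not_lt_zero i), fun y _ => rfl⟩
  | succ k ih =>
    intro hk
    obtain ⟨h1, h2⟩ := ih (by omega)
    obtain ⟨r1, -, r3, -, r5⟩ := R_spec hF (i := k) (j := k + 1) (by omega) hk (by omega)
    refine ⟨fun i hi => ?_, fun y hy => ?_⟩
    · rw [cyc, mul_apply', mul_apply']
      rcases Nat.lt_succ_iff_lt_or_eq.1 hi with hi' | rfl
      · rw [r5 _ (hF.perp2_e (by omega) hk (by omega) (by omega) (by omega)),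
          r5 _ (hF.perp2_f (by omega) hk (by omega) (by omega) (by omega))]
        exact h1 i hi'
      · rw [r1, r3, h2, h2]
        · exact ⟨rfl, rfl⟩
        all_goals intro l hl
        · exact ⟨hF.fe0 hk (by omega) (by omega), hF.ff _ _ hk (by omega)⟩
        · exact ⟨hF.ee _ _ hk (by omega), hF.ef0 hk (by omega) (by omega)⟩
    · rw [cyc, mul_apply', r5 y ⟨(hy k (by omega)).1, (hy k (by omega)).2, (hy (k + 1) le_rfl).1,
        (hy (k + 1) le_rfl).2⟩]
      exact h2 y fun i hi => hy i (by omega)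

end frame2

/-! ### The theorem -/

section main

variable [Fintype F] {m : ℕ}

theorem exists_two_gen (hm : 3 ≤ m) (hF : Frame Q m e f) (hnd : ∀ x, (∀ y, polar Q x y = 0) → x = 0)
    (v : W) (hv : Perp Q m e f v) (r : isoG Q) (hr : r ∈ siegelGroup Q)
    (hre : ∀ i, i < m → i ≠ 1 → r.1 (e i) = e i ∧ r.1 (f i) = f i)
    (hrx : ∃ c : F, c ≠ 0 ∧ (r.1 (e 1) = c • f 1 ∨ r.1 (f 1) = c • f 1))
    (hrv : Perp Q m e f (r.1 v))
    (hV : ∀ p, Perp Q m e f p → p ∈ Submodule.span F ({v, r.1 v} : Set W)) :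
    ∃ a b : siegelGroup Q, Subgroup.closure ({a, b} : Set (siegelGroup Q)) = ⊤ := by
  obtain ⟨τ, A, s, hτ, hA, s0, s1, hs, hA1, sA, sA'⟩ := exists_tau (F := F)
  have hl0 : 0 < m := by omega
  have hl1 : 1 < m := by omega
  have hl2 : 2 < m := by omega
  -- the companion element
  set g := R Q e f 0 1 * sie Q (e 0) ((-τ) • f 1)
  obtain ⟨r1, r2, r3, r4, r5⟩ := R_spec hF hl0 hl1 zero_ne_one
  have t1 := sieR_apply hF hl0 hl1 zero_ne_one (-τ)
  have ge0 : g.1 (e 0) = e 1 := by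
    rw [mul_apply', t1, hF.ee 0 0 hl0 hl0, hF.ef0 hl0 hl1 zero_ne_one]
    simp [r1]
  have ge1 : g.1 (e 1) = τ • e 1 - e 0 := by
    rw [mul_apply', t1, hF.ee 1 0 hl1 hl0, hF.ef1 hl1]
    simp only [mul_zero, zero_smul, add_zero, mul_one, map_sub, map_smul, map_neg, map_add, r1, r2, neg_smul,
      sub_neg_eq_add]
    module
  have gf0 : g.1 (f 0) = τ • f 0 + f 1 := by
    rw [mul_apply', t1, hF.fe1 hl0, hF.ff 0 1 hl0 hl1]
    simp only [mul_zero, zero_smul, sub_zero, mul_one, map_add, map_smul, map_neg, r3, r4, neg_smul, smul_neg,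
      neg_neg]
    module
  have gf1 : g.1 (f 1) = -f 0 := by
    rw [mul_apply', t1, hF.fe0 hl1 hl0 one_ne_zero, hF.ff 1 1 hl1 hl1]
    simp [r4]
  have gfix : ∀ y, Perp2 Q e f 0 1 y → g.1 y = y := fun y hy => by
    rw [mul_apply', t1, hy.1, hy.2.2.2]
    simp [r5 y hy]
  -- its order
  have hgA : g ^ A = 1 := by
    refine iso_ext fun u => ?_
    have key : ∀ x : W, g.1 (g.1 x) = τ • g.1 x - x →
        ∀ n, (g ^ (n + 1)).1 x = s (n + 1) • g.1 x - s n • x := by
      intro x hx n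
      induction n with
      | zero => simp [s0, s1]
      | succ n ih =>
        rw [pow_succ' g (n + 1), mul_apply', ih, map_sub, map_smul, map_smul, hx, hs n]
        module
    have hfour : ∀ x : W, g.1 (g.1 x) = τ • g.1 x - x → (g ^ A).1 x = x := fun x hx => by
      have := key x hx (A - 1)
      rw [Nat.sub_add_cancel hA1, sA, sA'] at this
      simpa using this
    have hfixp : ∀ (n : ℕ) (y : W), Perp2 Q e f 0 1 y → (g ^ n).1 y = y := by
      intro n y hy
      induction n with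
      | zero => rfl
      | succ n ih => rw [pow_succ', mul_apply', ih, gfix y hy]
    have e0' := hfour (e 0) (by rw [ge0, ge1])
    have e1' := hfour (e 1) (by rw [ge1, map_sub, map_smul, ge1, ge0])
    have f0' := hfour (f 0) (by rw [gf0, map_add, map_smul, gf0, gf1]; module)
    have f1' := hfour (f 1) (by rw [gf1, map_neg, gf0]; module)
    set y := u - polar Q u (f 0) • e 0 - polar Q u (f 1) • e 1 - polar Q u (e 0) • f 0 - polar Q u (e 1) • f 1
      with hy
    have hyp : Perp2 Q e f 0 1 y := by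
      refine ⟨?_, ?_, ?_, ?_⟩ <;>
        simp only [hy, polar_sub_left, polar_smul_left, hF.ee 0 0 hl0 hl0, hF.ee 1 1 hl1 hl1, hF.ee 0 1 hl0 hl1,
          hF.ee 1 0 hl1 hl0, hF.ff 0 0 hl0 hl0, hF.ff 1 1 hl1 hl1, hF.ff 0 1 hl0 hl1, hF.ff 1 0 hl1 hl0,
          hF.ef0 hl0 hl1 zero_ne_one, hF.ef0 hl1 hl0 one_ne_zero, hF.fe0 hl0 hl1 zero_ne_one,
          hF.fe0 hl1 hl0 one_ne_zero, hF.ef1 hl0, hF.ef1 hl1, hF.fe1 hl0, hF.fe1 hl1, smul_eq_mul] <;> ring
    have hu : u = y + polar Q u (f 0) • e 0 + polar Q u (f 1) • e 1 + polar Q u (e 0) • f 0 +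
        polar Q u (e 1) • f 1 := by rw [hy]; abel
    conv_lhs => rw [hu]
    simp only [map_add, map_smul, e0', e1', f0', f1', hfixp A y hyp]
    exact hu.symm
  -- the root element
  set U := sie Q (e 1) (e 0)
  have he10 : polar Q (e 1) (e 0) = 0 := hF.ee 1 0 hl1 hl0
  have hgU : Commute g U := by
    have h1 : g * U * g⁻¹ = U := by
      rw [sie_conj' (hF.Qe 1 hl1) he10 g ge1 ge0,
        sie_flip (by rw [← ge1, iso_Q, hF.Qe 1 hl1]) (hF.Qe 1 hl1) (by rw [polar_sub_left, polar_smul_left, hF.ee 1 1 hl1 hl1, hF.ee 0 1 hl0 hl1]; simp),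
        neg_sub, sub_eq_add_neg, ← neg_smul,
        sie_add (hF.Qe 1 hl1) he10 (by rw [polar_smul_right, hF.ee 1 1 hl1 hl1, smul_zero]),
        sie_self (hF.Qe 1 hl1), mul_one]
    exact mul_inv_eq_iff_eq_mul.1 h1
  have hUq : U ^ Fintype.card F = 1 := by
    have h : ∀ n : ℕ, U ^ n = sie Q (e 1) ((n : F) • e 0) := by
      intro n
      induction n with
      | zero => rw [Nat.cast_zero, zero_smul, sie_zero (hF.Qe 1 hl1), pow_zero]
      | succ n ih =>
        rw [pow_succ, ih, Nat.cast_succ, add_smul, one_smul,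
          sie_add (hF.Qe 1 hl1) (by rw [polar_smul_right, he10, smul_zero]) he10]
    rw [h, FiniteField.cast_card_eq_zero, zero_smul, sie_zero (hF.Qe 1 hl1)]
  -- the signed cycle
  set w := N Q e f * cyc Q e f (m - 1)
  obtain ⟨n1, n2, n3⟩ := N_spec hF (show 2 ≤ m by omega)
  obtain ⟨c1, -⟩ := cyc_spec hF (m - 1) (by omega)
  have we0 : w.1 (e 0) = -f 0 := by rw [mul_apply', (c1 0 (by omega)).1, n1]
  have wf0 : w.1 (f 0) = -e 0 := by rw [mul_apply', (c1 0 (by omega)).2, n2]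
  have wi : ∀ i, 1 ≤ i → i + 1 < m → w.1 (e i) = e (i + 1) ∧ w.1 (f i) = f (i + 1) := fun i h1 h2 => by
    rw [mul_apply', mul_apply', (c1 i (by omega)).1, (c1 i (by omega)).2,
      n3 _ (hF.perp2_e hl0 hl1 h2 (by omega) (by omega)), n3 _ (hF.perp2_f hl0 hl1 h2 (by omega) (by omega))]
    exact ⟨rfl, rfl⟩
  have hve1 : polar Q (e 1) v = 0 := by rw [polar_comm, (hv 1 hl1).1]
  set S1 := sie Q (e 1) v
  set b := S1 * r * w with hb
  have hS1 : ∀ y, polar Q y (e 1) = 0 → polar Q y v = 0 → S1.1 y = y :=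
    fun y h1 h2 => sie_fix (hF.Qe 1 hl1) hve1 h1 h2
  have hSe : ∀ i, i < m → S1.1 (e i) = e i := fun i hi =>
    hS1 _ (hF.ee i 1 hi hl1) (by rw [polar_comm, (hv i hi).1])
  have hSf : ∀ i, i < m → i ≠ 1 → S1.1 (f i) = f i := fun i hi h =>
    hS1 _ (hF.fe0 hi hl1 h) (by rw [polar_comm, (hv i hi).2])
  have be0 : b.1 (e 0) = -f 0 := by
    rw [hb, mul_apply', mul_apply', we0, map_neg, map_neg, (hre 0 hl0 zero_ne_one).2, hSf 0 hl0 zero_ne_one]
  have bf0 : b.1 (f 0) = -e 0 := by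
    rw [hb, mul_apply', mul_apply', wf0, map_neg, map_neg, (hre 0 hl0 zero_ne_one).1, hSe 0 hl0]
  have bei : ∀ i, 1 ≤ i → i + 1 < m → b.1 (e i) = e (i + 1) ∧ b.1 (f i) = f (i + 1) := fun i h1 h2 => by
    constructor
    · rw [hb, mul_apply', mul_apply', (wi i h1 h2).1, (hre (i + 1) h2 (by omega)).1, hSe (i + 1) h2]
    · rw [hb, mul_apply', mul_apply', (wi i h1 h2).2, (hre (i + 1) h2 (by omega)).2, hSf (i + 1) h2 (by omega)]
  have hgS : g ∈ siegelGroup Q := by
    refine mul_mem (mul_mem (mul_mem ?_ ?_) ?_) ?_ <;> refine sie_mem (hF.Qe _ (by omega)) ?_ <;>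
      simp [polar_neg_right, polar_smul_right, hF.ef0 hl0 hl1 zero_ne_one, hF.ef0 hl1 hl0 one_ne_zero]
  have hbS : b ∈ siegelGroup Q := by
    refine mul_mem (mul_mem (sie_mem (hF.Qe 1 hl1) hve1) hr) (mul_mem ?_ ?_)
    · exact mul_mem (mul_mem (sie_mem (hF.Qe 0 hl0) (hF.ee 0 1 hl0 hl1))
        (sie_mem (hF.Qf 1 hl1) (by rw [polar_neg_right, hF.ff 1 0 hl1 hl0, neg_zero])))
        (sie_mem (hF.Qe 0 hl0) (hF.ee 0 1 hl0 hl1))
    · have : ∀ k, k < m → cyc Q e f k ∈ siegelGroup Q := by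
        intro k
        induction k with
        | zero => exact fun _ => one_mem _
        | succ k ih =>
          intro hk
          refine mul_mem (ih (by omega)) (mul_mem (mul_mem ?_ ?_) ?_) <;>
            refine sie_mem (hF.Qe _ (by omega)) ?_
          · exact hF.ef0 (by omega) hk (by omega)
          · rw [polar_neg_right, hF.ef0 hk (by omega) (by omega), neg_zero]
          · exact hF.ef0 (by omega) hk (by omega)
      exact this _ (by omega)
  have hUS : U ∈ siegelGroup Q := sie_mem (hF.Qe 1 hl1) he10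
  refine ⟨⟨g * U, mul_mem hgS hUS⟩, ⟨b, hbS⟩, ?_⟩
  set H := Subgroup.closure ({g * U, b} : Set (isoG Q))
  suffices hH : siegelGroup Q ≤ H by
    apply Subgroup.map_injective (siegelGroup Q).subtype_injective
    rw [MonoidHom.map_closure, ← MonoidHom.range_eq_map, Subgroup.range_subtype, Set.image_pair]
    refine le_antisymm ((Subgroup.closure_le _).2 ?_) hH
    rintro x (rfl | rfl)
    exacts [mul_mem hgS hUS, hbS]
  obtain ⟨hgH, hUH⟩ := mem_of_coprime hgU hA Fintype.one_lt_card hgA hUq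
    (show g * U ∈ H from Subgroup.subset_closure (Set.mem_insert _ _))
  have hbH : b ∈ H := Subgroup.subset_closure (Set.mem_insert_of_mem _ rfl)
  -- the shifted companion
  set g1 := b * g * b⁻¹
  have hg1 : g1 ∈ H := mul_mem (mul_mem hbH hgH) (inv_mem hbH)
  have g1b : ∀ y y', g.1 y = y' → g1.1 (b.1 y) = b.1 y' := fun y y' h => by
    rw [← mul_apply', inv_mul_cancel_right, mul_apply', h]
  obtain ⟨be1, bf1⟩ := bei 1 le_rfl hl2
  have g1fix : ∀ y, Perp2 Q e f 0 2 y → g1.1 y = y := fun y hy => by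
    have e1 : b.1 ((b⁻¹ : isoG Q).1 y) = y := by rw [← mul_apply', mul_inv_cancel]; rfl
    have hp : ∀ z, polar Q ((b⁻¹ : isoG Q).1 y) z = polar Q y (b.1 z) := fun z => by rw [← iso_B b, e1]
    have hy' : Perp2 Q e f 0 1 ((b⁻¹ : isoG Q).1 y) := by
      refine ⟨?_, ?_, ?_, ?_⟩ <;> rw [hp]
      · rw [be0, polar_neg_right, hy.2.1, neg_zero]
      · rw [bf0, polar_neg_right, hy.1, neg_zero]
      · rw [be1, hy.2.2.1]
      · rw [bf1, hy.2.2.2]
    have := g1b _ _ (gfix _ hy')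
    rwa [e1] at this
  have g1e2 : g1.1 (e 2) = f 0 + τ • e 2 := by
    rw [← be1, g1b _ _ ge1, map_sub, map_smul, be1, be0, sub_neg_eq_add, add_comm]
  have g1f2 : g1.1 (f 2) = e 0 := by rw [← bf1, g1b _ _ gf1, map_neg, bf0, neg_neg]
  have g1e0 : g1.1 (e 0) = τ • e 0 - f 2 := by
    have := g1b _ _ gf0
    rw [bf0, map_neg, map_add, map_smul, bf0, bf1] at this
    rw [← neg_inj, this]
    module
  -- the first root subgroups
  obtain ⟨P10, P1'⟩ := full hτ hg1 (g1fix _ (hF.perp2_e hl0 hl2 hl1 one_ne_zero (by omega))) (hF.Qe 1 hl1)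
    (hF.Qe 0 hl0) he10 g1e0 (by rw [map_sub, map_smul, g1e0, g1f2]) hUH
  have P1f2 : P H (e 1) (f 2) := by
    have := (P10.smul τ).add P1'.neg (by
      rw [polar_smul_left, polar_neg_right, polar_sub_right, polar_smul_right, hF.ee 0 0 hl0 hl0,
        hF.ef0 hl0 hl2 (by omega)]
      simp)
    simpa using this
  have hU1 : sie Q (e 2) (f 0) ∈ H := by
    have h := inv_mem (mul_mem (mul_mem hbH hUH) (inv_mem hbH))
    rwa [sie_conj' (hF.Qe 1 hl1) he10 b be1 be0,
      sie_neg (hF.Qe 2 hl2) (hF.ef0 hl2 hl0 (by omega)), inv_inv] at h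
  obtain ⟨P2f0, P2'⟩ := full hτ hgH (gfix _ (hF.perp2_e hl0 hl1 hl2 (by omega) (by omega))) (hF.Qe 2 hl2)
    (hF.Qf 0 hl0) (hF.ef0 hl2 hl0 (by omega)) gf0 (by rw [map_add, map_smul, gf0, gf1]; module) hU1
  have P2f1 : P H (e 2) (f 1) := by
    have := P2'.add (P2f0.smul τ).neg (by
      rw [polar_neg_right, polar_smul_right, polar_add_left, polar_smul_left, hF.ff 0 0 hl0 hl0,
        hF.ff 1 0 hl1 hl0]
      simp)
    simpa using this
  have P1f0 : P H (e 1) (f 0) :=
    (P1f2.comm P2f0 (hF.fe1 hl2) (hF.ee 1 2 hl1 hl2) (hF.ef0 hl1 hl0 one_ne_zero) (hF.ff 2 0 hl2 hl0)).symm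
  have Pf1f0 : P H (f 1) (f 0) := by
    have h1 := (P2f1.conj hg1 g1e2 (g1fix _ (hF.perp2_f hl0 hl2 hl1 one_ne_zero (by omega)))).symm
    have := h1.add (P2f1.symm.smul τ).neg (by
      rw [polar_neg_right, polar_smul_right, polar_add_left, polar_smul_left, hF.fe0 hl0 hl2 (by omega),
        hF.ee 2 2 hl2 hl2]
      simp)
    simpa using this
  have Pf2e0 : P H (f 2) (e 0) := by
    have h1 := (P1f2.conj hgH ge1 (gfix _ (hF.perp2_f hl0 hl1 hl2 (by omega) (by omega)))).symm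
    have := (P1f2.symm.smul τ).add h1.neg (by
      rw [polar_smul_left, polar_neg_right, polar_sub_right, polar_smul_right, hF.ee 1 1 hl1 hl1,
        hF.ee 1 0 hl1 hl0]
      simp)
    simpa using this
  have Pf1e0 : P H (f 1) (e 0) :=
    Pf2e0.symm.comm P2f1 (hF.fe1 hl2) (hF.ee 0 2 hl0 hl2) (hF.ef0 hl0 hl1 zero_ne_one) (hF.ff 2 1 hl2 hl1)
  -- along the cycle
  have hall : ∀ j, 1 ≤ j → j < m →
      P H (e j) (e 0) ∧ P H (e j) (f 0) ∧ P H (f j) (e 0) ∧ P H (f j) (f 0) := by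
    intro j
    induction j with
    | zero => exact fun h => absurd h (by omega)
    | succ j ih =>
      intro _ hj
      rcases Nat.eq_zero_or_pos j with rfl | hj0
      · exact ⟨P10, P1f0, Pf1e0, Pf1f0⟩
      obtain ⟨a1, a2, a3, a4⟩ := ih hj0 (by omega)
      obtain ⟨b1, b2⟩ := bei j hj0 hj
      exact ⟨by simpa using (a2.conj hbH b1 bf0).neg, by simpa using (a1.conj hbH b1 be0).neg,
        by simpa using (a4.conj hbH b2 bf0).neg, by simpa using (a3.conj hbH b2 be0).neg⟩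
  -- the cycle itself
  have hef : ∀ i j, i < m → j < m → i ≠ j → P H (e i) (f j) := by
    intro i j hi hj hij
    rcases Nat.eq_zero_or_pos i with rfl | hi0
    · exact (hall j (by omega) hj).2.2.1.symm
    rcases Nat.eq_zero_or_pos j with rfl | hj0
    · exact (hall i hi0 hi).2.1
    exact ((hall i hi0 hi).1.comm (hall j hj0 hj).2.2.2.symm (hF.ef1 hl0) (hF.ef0 hi hl0 (by omega))
      (hF.ef0 hi hj hij) (hF.ef0 hl0 hj (by omega))).symm
  have hw : w ∈ H := by
    refine mul_mem (mul_mem (mul_mem P10.symm.mem Pf1f0.neg.mem) P10.symm.mem) ?_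
    have : ∀ k, k < m → cyc Q e f k ∈ H := by
      intro k
      induction k with
      | zero => exact fun _ => one_mem _
      | succ k ih =>
        intro hk
        exact mul_mem (ih (by omega)) (R_mem hF (by omega) hk (by omega)
          (hef k (k + 1) (by omega) hk (by omega)) (hef (k + 1) k hk (by omega) (by omega)))
    exact this _ (by omega)
  -- the remaining part of the perp of `e 0`
  set h := S1 * r
  have hh : h ∈ H := by
    have := mul_mem hbH (inv_mem hw)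
    rwa [hb, mul_inv_cancel_right] at this
  have he00 := hF.Qe 0 hl0
  let R0 : Submodule F W :=
    { carrier := {u | polar Q (e 0) u = 0 ∧ ∀ t : F, sie Q (e 0) (t • u) ∈ H}
      add_mem' := fun {a c} ha hc => ⟨by rw [polar_add_right, ha.1, hc.1, add_zero], fun t => by
        rw [smul_add, sie_add he00 (by rw [polar_smul_right, ha.1, smul_zero])
          (by rw [polar_smul_right, hc.1, smul_zero])]
        exact mul_mem (ha.2 t) (hc.2 t)⟩
      zero_mem' := ⟨polar_zero_right _ _, fun t => by rw [smul_zero, sie_zero he00]; exact one_mem H⟩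
      smul_mem' := fun c u hu => ⟨by rw [polar_smul_right, hu.1, smul_zero],
        fun t => by rw [smul_smul]; exact hu.2 _⟩ }
  have ofP : ∀ u, P H (e 0) u → u ∈ R0 := fun u hu => ⟨hu.2.2.1, hu.2.2.2⟩
  have he0m : e 0 ∈ R0 := ⟨hF.ee 0 0 hl0 hl0, fun t => by rw [sie_self he00]; exact one_mem H⟩
  have hem : ∀ i, 1 ≤ i → i < m → e i ∈ R0 ∧ f i ∈ R0 := fun i h1 h2 =>
    ⟨ofP _ (hall i h1 h2).1.symm, ofP _ (hall i h1 h2).2.2.1.symm⟩
  have hhe0 : h.1 (e 0) = e 0 := by rw [mul_apply', (hre 0 hl0 zero_ne_one).1, hSe 0 hl0]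
  have hvR : v ∈ R0 := by
    have hS : S1.1 (f 1) = f 1 + v - Q v • e 1 := by
      rw [sie_apply (hF.Qe 1 hl1) hve1, hF.fe1 hl1, polar_comm Q (f 1) v, (hv 1 hl1).2]
      simp
    obtain ⟨c, hc, hx⟩ := hrx
    have key : ∀ x, P H x (e 0) → r.1 x = c • f 1 → v ∈ R0 := fun x hP hx => by
      have h1 := ofP _ ((hP.conj hh (show h.1 x = c • (f 1 + v - Q v • e 1) by
        rw [mul_apply', hx, map_smul, hS]) hhe0).symm)
      have h2 := R0.smul_mem c⁻¹ h1
      rw [smul_smul, inv_mul_cancel₀ hc, one_smul] at h2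
      have h3 := R0.sub_mem (R0.add_mem h2 (R0.smul_mem (Q v) (hem 1 le_rfl hl1).1)) (hem 1 le_rfl hl1).2
      convert h3 using 1
      abel
    rcases hx with hx | hx
    exacts [key _ P10 hx, key _ Pf1e0 hx]
  have hrvR : r.1 v ∈ R0 := by
    have hS : S1.1 (r.1 v) = r.1 v - polar Q (r.1 v) v • e 1 := by
      rw [sie_apply (hF.Qe 1 hl1) hve1, (hrv 1 hl1).1]
      simp
    have h1 : S1.1 (r.1 v) ∈ R0 := by
      refine ⟨by rw [← hhe0, ← mul_apply', iso_B, hvR.1], fun t => ?_⟩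
      have := mul_mem (mul_mem hh (hvR.2 t)) (inv_mem hh)
      rwa [sie_conj' he00 (by rw [polar_smul_right, hvR.1, smul_zero]) h hhe0
        (show h.1 (t • v) = t • S1.1 (r.1 v) by rw [map_smul, mul_apply'])] at this
    rw [hS] at h1
    have h3 := R0.add_mem h1 (R0.smul_mem (polar Q (r.1 v) v) (hem 1 le_rfl hl1).1)
    rwa [sub_add_cancel] at h3
  have hR0 : ∀ u, polar Q (e 0) u = 0 → sie Q (e 0) u ∈ H := by
    intro u hu
    have : u ∈ R0 := by
      obtain ⟨p, hp, hpe⟩ := hF.exists_perp u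
      rw [hpe]
      refine R0.add_mem (R0.sum_mem fun i hi => ?_) ?_
      · rcases Nat.eq_zero_or_pos i with rfl | hi0
        · rw [polar_comm Q u (e 0), hu, zero_smul, add_zero]
          exact R0.smul_mem _ he0m
        · obtain ⟨a1, a2⟩ := hem i hi0 (Finset.mem_range.1 hi)
          exact R0.add_mem (R0.smul_mem _ a1) (R0.smul_mem _ a2)
      · refine (Submodule.span_le.2 ?_) (hV p hp)
        rintro x (rfl | rfl)
        exacts [hvR, hrvR]
    simpa using this.2 1
  have hS0 : ∀ u, polar Q (f 0) u = 0 → sie Q (f 0) u ∈ H := by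
    intro u hu
    have e1 : w.1 ((w⁻¹ : isoG Q).1 (-u)) = -u := by rw [← mul_apply', mul_inv_cancel]; rfl
    have h0 : polar Q (e 0) ((w⁻¹ : isoG Q).1 (-u)) = 0 := by
      rw [← iso_B w, e1, we0, polar_neg_left, polar_neg_right, neg_neg, hu]
    have := mul_mem (mul_mem hw (hR0 _ h0)) (inv_mem hw)
    rwa [sie_conj' he00 h0 w we0 e1, show -f 0 = (-1 : F) • f 0 from (neg_one_smul F _).symm,
      sie_smul (hF.Qf 0 hl0) (by rw [polar_neg_right, hu, neg_zero]), neg_one_smul, neg_neg] at this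
  -- transitivity
  have hf0 := hF.Qf 0 hl0
  have move0 : ∀ x, Q x = 0 → polar Q x (f 0) ≠ 0 → ∃ k ∈ H, ∃ c : F, k.1 x = c • e 0 := by
    intro x hx hne
    obtain ⟨u, hu, hk⟩ := exists_siegel_move hx (x' := polar Q x (f 0) • e 0)
      (by rw [QuadraticMap.map_smul, he00, smul_zero]) hf0 hne
      (by rw [polar_smul_left, hF.ef1 hl0, smul_eq_mul, mul_one])
    exact ⟨_, hS0 u hu, _, hk⟩
  have move : ∀ x, Q x = 0 → ∃ k ∈ H, ∃ c : F, k.1 x = c • e 0 := by
    intro x hx
    rcases eq_or_ne x 0 with rfl | hx0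
    · exact ⟨1, one_mem H, 0, by simp⟩
    by_cases h1 : polar Q x (f 0) = 0
    swap
    · exact move0 x hx h1
    by_cases h2 : polar Q x (e 0) = 0
    · obtain ⟨y, hy⟩ : ∃ y, polar Q x y ≠ 0 := by
        by_contra! hc
        exact hx0 (hnd x hc)
      have hu : polar Q (e 0) (y - polar Q y (e 0) • f 0) = 0 := by
        rw [polar_sub_right, polar_smul_right, hF.ef1 hl0, polar_comm Q (e 0) y, smul_eq_mul, mul_one, sub_self]
      obtain ⟨k, hk, c, hc⟩ := move0 ((sie Q (e 0) (y - polar Q y (e 0) • f 0)).1 x) (by rw [iso_Q, hx]) (by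
        rw [sie_apply he00 hu, h2, polar_sub_right, polar_smul_right, h1]
        simpa [polar_sub_left, polar_smul_left, h1, hF.ef1 hl0] using hy)
      exact ⟨k * sie Q (e 0) (y - polar Q y (e 0) • f 0), mul_mem hk (hR0 _ hu), c, hc⟩
    · obtain ⟨u, hu, hk⟩ := exists_siegel_move hx (x' := polar Q x (e 0) • f 0)
        (by rw [QuadraticMap.map_smul, hf0, smul_zero]) he00 h2
        (by rw [polar_smul_left, hF.fe1 hl0, smul_eq_mul, mul_one])
      exact ⟨w * sie Q (e 0) u, mul_mem hw (hR0 u hu), -(polar Q x (e 0)),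
        by rw [mul_apply', hk, map_smul, wf0, smul_neg, neg_smul]⟩
  rw [siegelGroup, Subgroup.closure_le]
  rintro _ ⟨x, u, hx, hu, rfl⟩
  obtain ⟨k, hk, c, hc⟩ := move x hx
  have hp : polar Q (c • e 0) (k.1 u) = 0 := by rw [← hc, iso_B, hu]
  have hm : k * sie Q x u * k⁻¹ ∈ H := by
    rw [sie_conj hx hu, hc]
    rcases eq_or_ne c 0 with rfl | hc0
    · rw [zero_smul, sie_zero_left]; exact one_mem H
    rw [polar_smul_left, smul_eq_mul, mul_eq_zero] at hp
    rw [sie_smul he00 (hp.resolve_left hc0)]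
    exact hR0 _ (by rw [polar_smul_right, hp.resolve_left hc0, smul_zero])
  have := mul_mem (mul_mem (inv_mem hk) hm) hk
  rwa [show k⁻¹ * (k * sie Q x u * k⁻¹) * k = sie Q x u by group] at this

end main

end Cfsg.Agent.Lib.Classical.QuadOmega.TwoGen
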