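import Cfsg.Agent.Lib.Classical.QuadOmega.TwoGen

/-!
Two generators of the projective Omega groups of the standard forms.
-/

set_option autoImplicit false

namespace Cfsg.Agent.Lib.Classical.QuadOmega.TwoGen

open QuadraticMap Cfsg.Agent.Lib.Classical.Quad

variable {F : Type*} [Field F] {V : Type*} [AddCommGroup V] [Module F V]

/-- A product of two reflections of the same value is a product of Siegel transformations. -/
theorem refl_mul_mem {Q : QuadraticForm F V} (hG : Good Q) {a b : V} (ha : Q a ≠ 0) (hab : Q b = Q a) :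
    refl Q a * refl Q b ∈ siegelGroup Q := by
  obtain ⟨e, f, -, -, he, hf, -, -, hef, -⟩ := hG.two
  obtain ⟨s, hs, hsa⟩ := hG.exists_map_nonsing he hf hef ha
  obtain ⟨t, ht, htb⟩ := hG.exists_map_nonsing he hf hef (show Q b ≠ 0 by rwa [hab])
  rw [hab] at htb
  have hx : Q (Q a • e + f) ≠ 0 := by rwa [pair_nonsing he hf hef]
  have ea := refl_conj hx s
  have eb := refl_conj hx t
  rw [hsa] at ea
  rw [htb] at eb
  rw [← ea, ← eb]
  set r0 := refl Q (Q a • e + f)
  have hr0 : r0⁻¹ = r0 := refl_inv hx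
  rw [show s * r0 * s⁻¹ * (t * r0 * t⁻¹) = s * (r0 * (s⁻¹ * t) * r0⁻¹) * t⁻¹ by
    rw [hr0]; group]
  exact mul_mem (mul_mem hs (siegelGroup_normal.conj_mem _ (mul_mem (inv_mem hs) ht) r0)) (inv_mem ht)

section split

variable (m : ℕ) (Q₀ : QuadraticForm F V)

/-- The basis vectors `e i`. -/
def eStd (i : ℕ) : ((Fin m → F) × (Fin m → F)) × V :=
  if h : i < m then ((Pi.single ⟨i, h⟩ 1, 0), 0) else 0

/-- The basis vectors `f i`. -/
def fStd (i : ℕ) : ((Fin m → F) × (Fin m → F)) × V :=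
  if h : i < m then ((0, Pi.single ⟨i, h⟩ 1), 0) else 0

theorem frame_std : Frame (splitQ m Q₀) m (eStd (F := F) (V := V) m) (fStd m) where
  Qe i hi := by simp [eStd, hi, splitQ_apply]
  Qf i hi := by simp [fStd, hi, splitQ_apply]
  ee i j hi hj := by simp [eStd, hi, hj, polar_splitQ, polar_zero_right]
  ff i j hi hj := by simp [fStd, hi, hj, polar_splitQ, polar_zero_right]
  ef i j hi hj := by
    simp only [eStd, fStd, dif_pos hi, dif_pos hj, polar_splitQ]
    rw [Finset.sum_eq_single_of_mem (⟨i, hi⟩ : Fin m) (Finset.mem_univ _) (fun x _ hx => by simp [hx])]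
    simp [polar_zero_right, Pi.single_apply, Fin.ext_iff]

theorem polar_vec (u : V) (p : ((Fin m → F) × (Fin m → F)) × V) :
    polar (splitQ m Q₀) (0, u) p = polar Q₀ u p.2 := by
  simp [polar_splitQ]

theorem perp_vec (u : V) : Perp (splitQ m Q₀) m (eStd m) (fStd m) (0, u) := fun i hi => by
  simp [polar_vec, eStd, fStd, hi, polar_zero_right]

theorem fst_eq_zero_of_perp {p : ((Fin m → F) × (Fin m → F)) × V}
    (hp : Perp (splitQ m Q₀) m (eStd m) (fStd m) p) : p.1 = 0 := by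
  refine Prod.ext (funext fun i => ?_) (funext fun i => ?_)
  · have := (hp i i.isLt).2
    simpa [fStd, i.isLt, polar_splitQ, polar_zero_right, Pi.single_apply] using this
  · have := (hp i i.isLt).1
    simpa [eStd, i.isLt, polar_splitQ, polar_zero_right, Pi.single_apply] using this

end split

variable [Fintype F]

/-- Forms whose anisotropic part is a multiple of one vector. -/
theorem two_gen_line {m : ℕ} (hm : 3 ≤ m) {Q₀ : QuadraticForm F V}
    (hnd : ∀ x, (∀ y, polar (splitQ m Q₀) x y = 0) → x = 0) (v : V) (hv : ∀ u : V, ∃ c : F, u = c • v) :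
    ∃ a b : siegelGroup (splitQ m Q₀), Subgroup.closure ({a, b} : Set (siegelGroup (splitQ m Q₀))) = ⊤ := by
  refine exists_two_gen hm (frame_std m Q₀) hnd (0, v) (perp_vec m Q₀ v) 1 (one_mem _) (fun i _ _ => ⟨rfl, rfl⟩)
    ⟨1, one_ne_zero, Or.inr ?_⟩ (perp_vec m Q₀ v) fun p hp => ?_
  · rw [one_smul]; rfl
  · obtain ⟨c, hc⟩ := hv p.2
    rw [show p = c • ((0 : (Fin m → F) × (Fin m → F)), v) from
      Prod.ext (by simp [fst_eq_zero_of_perp m Q₀ hp]) hc]
    exact Submodule.smul_mem _ _ (Submodule.subset_span (Set.mem_insert _ _))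

/-- Forms whose anisotropic part is a plane. -/
theorem two_gen_plane {m : ℕ} (hm : 3 ≤ m) {a b : F} (hab : Aniso a b) :
    ∃ g h : siegelGroup (splitQ m (binQ a b)),
      Subgroup.closure ({g, h} : Set (siegelGroup (splitQ m (binQ a b)))) = ⊤ := by
  have hG := good_minus hab hm
  -- a second vector, not orthogonal to the first
  obtain ⟨x, hx⟩ : ∃ x : F, 2 * x + a ≠ 0 := by
    by_contra! h
    have ha : a = 0 := by simpa using h 0
    have h2 : (2 : F) = 0 := by have := h 1; rw [ha] at this; simpa using this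
    have := aniso_disc hab
    rw [ha, show (4 : F) = 2 * 2 by norm_num, h2] at this
    simp at this
  set v₀ : Fin 2 → F := ![1, 0]
  set v₁ : Fin 2 → F := ![x, 1]
  have hv₁ : binQ a b v₁ ≠ 0 := fun h => by
    rw [binQ_apply] at h
    have := (hab (v₁ 0) (v₁ 1) (by linear_combination h)).2
    simp [v₁] at this
  have hB : polar (binQ a b) v₀ v₁ ≠ 0 := by
    have : polar (binQ a b) v₀ v₁ = 2 * x + a := by
      simp [polar, binQ_apply, v₀, v₁]
      ring
    rwa [this]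
  set Q := splitQ m (binQ a b)
  set c := binQ a b v₁ with hc
  set w₁ : ((Fin m → F) × (Fin m → F)) × (Fin 2 → F) := eStd m 1 + c • fStd m 1
  set w₀ : ((Fin m → F) × (Fin m → F)) × (Fin 2 → F) := (0, v₁)
  have hF := frame_std m (binQ a b)
  have h1 : 1 < m := by omega
  have hw₁ : Q w₁ = c := by
    rw [QuadraticMap.map_add ⇑Q, QuadraticMap.map_smul, polar_smul_right, hF.Qe 1 h1, hF.Qf 1 h1, hF.ef1 h1]
    simp
  have hw₀ : Q w₀ = c := by simp [Q, w₀, splitQ_apply, hc]
  have n₁ : Q w₁ ≠ 0 := by rw [hw₁]; exact hv₁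
  have n₀ : Q w₀ ≠ 0 := by rw [hw₀]; exact hv₁
  have hp0 := perp_vec m (binQ a b) v₁
  have hpv := perp_vec m (binQ a b) v₀
  have fix₁ : ∀ y, polar Q y (eStd m 1) = 0 → polar Q y (fStd m 1) = 0 → (refl Q w₁).1 y = y := fun y ha hb => by
    rw [refl_apply n₁, polar_add_right, polar_smul_right, ha, hb]
    simp
  have fix₀ : ∀ y, polar Q y w₀ = 0 → (refl Q w₀).1 y = y := fun y ha => by
    rw [refl_apply n₀, ha]
    simp
  have rv : (refl Q w₀ * refl Q w₁).1 (0, v₀) = (0, v₀ - (polar (binQ a b) v₀ v₁ / c) • v₁) := by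
    rw [mul_apply', fix₁ _ (hpv 1 h1).1 (hpv 1 h1).2, refl_apply n₀, polar_vec, hw₀]
    simp [w₀, Prod.ext_iff]
  refine exists_two_gen hm hF hG.nd (0, v₀) hpv (refl Q w₀ * refl Q w₁)
    (refl_mul_mem hG n₀ (by rw [hw₁, hw₀])) (fun i hi hi1 => ⟨?_, ?_⟩)
    ⟨-c, neg_ne_zero.2 hv₁, Or.inl ?_⟩ (by rw [rv]; exact perp_vec m (binQ a b) _) fun p hp => ?_
  · rw [mul_apply', fix₁ _ (hF.ee i 1 hi h1) (hF.ef0 hi h1 hi1),
      fix₀ _ (by rw [polar_comm, (hp0 i hi).1])]
  · rw [mul_apply', fix₁ _ (hF.fe0 hi h1 hi1) (hF.ff i 1 hi h1),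
      fix₀ _ (by rw [polar_comm, (hp0 i hi).2])]
  · rw [mul_apply', refl_apply n₁, polar_add_right, polar_smul_right, hF.ee 1 1 h1 h1, hF.ef1 h1, hw₁, zero_add,
      smul_eq_mul, mul_one, div_self hv₁, one_smul, sub_add_eq_sub_sub, sub_self, zero_sub, map_neg, map_smul,
      fix₀ _ (by rw [polar_comm, (hp0 1 h1).2]), neg_smul]
  · rw [rv]
    have hu : p.2 = (p.2 0 - p.2 1 * x) • v₀ + p.2 1 • v₁ := by
      funext i
      fin_cases i <;> simp [v₀, v₁]
    rw [Submodule.mem_span_pair]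
    set d := polar (binQ a b) v₀ v₁ / c
    have hd : d ≠ 0 := div_ne_zero hB hv₁
    refine ⟨p.2 0 - p.2 1 * x + p.2 1 / d, -(p.2 1 / d), ?_⟩
    refine Prod.ext (by simp [fst_eq_zero_of_perp m _ hp]) ?_
    conv_rhs => rw [hu]
    simp only [Prod.snd_add, Prod.smul_snd, smul_sub, smul_smul, neg_mul, div_mul_cancel₀ _ hd]
    module

/-- From the group of Siegel transformations to the projective Omega group. -/
theorem two_gen_pOmega {ι : Type} [Fintype ι] [DecidableEq ι] [Finite V] {Q : QuadraticForm F V}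
    (f : (ι → F) → F) (e : V ≃ₗ[F] (ι → F)) (he : ∀ v, f (e v) = Q v) (hG : Good Q)
    (h : ∃ a b : siegelGroup Q, Subgroup.closure ({a, b} : Set (siegelGroup Q)) = ⊤) :
    ∃ a b : Cfsg.POmega F f, Subgroup.closure ({a, b} : Set (Cfsg.POmega F f)) = ⊤ := by
  obtain ⟨E⟩ := exists_pOmegaEquiv f e he hG
  obtain ⟨a, b, hab⟩ := h
  let φ := E.symm.toMonoidHom.comp (QuotientGroup.mk' (Subgroup.center (siegelGroup Q)))
  refine ⟨φ a, φ b, ?_⟩
  rw [← Set.image_pair, ← MonoidHom.map_closure, hab]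
  exact Subgroup.map_top_of_surjective φ (E.symm.surjective.comp (QuotientGroup.mk'_surjective _))

theorem plus {m : ℕ} (hm : 3 ≤ m) :
    ∃ a b : Cfsg.POmega F (Cfsg.quadFormPlus m F),
      Subgroup.closure ({a, b} : Set (Cfsg.POmega F (Cfsg.quadFormPlus m F))) = ⊤ :=
  two_gen_pOmega _ (ePlus m) (plus_apply m) (good_plus hm)
    (two_gen_line hm (good_plus hm).nd 0 fun u => ⟨0, Subsingleton.elim _ _⟩)

theorem odd (h2 : (2 : F) ≠ 0) {m : ℕ} (hm : 3 ≤ m) :
    ∃ a b : Cfsg.POmega F (Cfsg.quadFormOdd m F),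
      Subgroup.closure ({a, b} : Set (Cfsg.POmega F (Cfsg.quadFormOdd m F))) = ⊤ :=
  two_gen_pOmega _ (eOdd m) (odd_apply m) (good_odd h2 hm)
    (two_gen_line hm (good_odd h2 hm).nd (fun _ => 1) fun u => ⟨u (), by ext; simp⟩)

theorem minus {a b : F} (hab : Aniso a b) {m : ℕ} (hm : 3 ≤ m) :
    ∃ g h : Cfsg.POmega F (Cfsg.quadFormMinus m F a b),
      Subgroup.closure ({g, h} : Set (Cfsg.POmega F (Cfsg.quadFormMinus m F a b))) = ⊤ :=
  two_gen_pOmega _ (eMinus m) (minus_apply m a b) (good_minus hab hm) (two_gen_plane hm hab)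

end Cfsg.Agent.Lib.Classical.QuadOmega.TwoGen
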